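/-
A lower bound for the index of a proper subgroup of a finite simple group from a nonabelian subgroup of
order `5³` with an automorphism of order `8` of suitable kind.
-/
import Mathlib

set_option autoImplicit false

namespace Cfsg.Agent.Lib.U35

open Subgroup

section heis

variable {G : Type*} [Group G] {a b z : G}

/-- Commuting `b` past powers of `a`. -/
theorem b_mul_a_pow (h5z : z ^ 5 = 1) (haz : a * z = z * a) (hbz : b * z = z * b)
    (hab : a * b = z * b * a) (i : ℕ) : b * a ^ i = a ^ i * b * z ^ (4 * i) := by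
  have hza : Commute z a := Commute.symm haz
  have hzb : Commute z b := Commute.symm hbz
  have hba : b * a = a * b * z ^ 4 := by
    have h1 : z * z ^ 4 = 1 := by rw [← pow_succ', h5z]
    have h2 : a * b * z ^ 4 = z * b * a * z ^ 4 := by rw [hab]
    rw [h2]
    have h3 : Commute (z ^ 4) a := hza.pow_left 4
    have h4 : Commute (z ^ 4) b := hzb.pow_left 4
    calc b * a = (z * z ^ 4) * (b * a) := by rw [h1, one_mul]
      _ = z * (z ^ 4 * b) * a := by simp only [mul_assoc]
      _ = z * (b * z ^ 4) * a := by rw [h4.eq]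
      _ = z * b * (z ^ 4 * a) := by simp only [mul_assoc]
      _ = z * b * (a * z ^ 4) := by rw [h3.eq]
      _ = z * b * a * z ^ 4 := by simp only [mul_assoc]
  induction i with
  | zero => simp
  | succ i ih =>
    have h5 : Commute (z ^ (4 * i)) a := hza.pow_left _
    calc b * a ^ (i + 1) = (b * a ^ i) * a := by rw [pow_succ, mul_assoc]
      _ = a ^ i * b * z ^ (4 * i) * a := by rw [ih]
      _ = a ^ i * b * (z ^ (4 * i) * a) := by simp only [mul_assoc]
      _ = a ^ i * b * (a * z ^ (4 * i)) := by rw [h5.eq]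
      _ = a ^ i * (b * a) * z ^ (4 * i) := by simp only [mul_assoc]
      _ = a ^ i * (a * b * z ^ 4) * z ^ (4 * i) := by rw [hba]
      _ = a ^ (i + 1) * b * z ^ (4 * (i + 1)) := by
        rw [pow_succ a i, show 4 * (i + 1) = 4 + 4 * i by ring, pow_add z 4]
        simp only [mul_assoc]

/-- Normal form in the subgroup generated. -/
theorem closure_form (h5a : a ^ 5 = 1) (h5b : b ^ 5 = 1) (h5z : z ^ 5 = 1) (haz : a * z = z * a) (hbz : b * z = z * b)
    (hab : a * b = z * b * a) {p : G} (hp : p ∈ closure ({a, b, z} : Set G)) :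
    ∃ i j k : ℕ, i < 5 ∧ j < 5 ∧ k < 5 ∧ p = a ^ i * b ^ j * z ^ k := by
  have hza : Commute z a := Commute.symm haz
  have hzb : Commute z b := Commute.symm hbz
  let S : G → Prop := fun g => ∃ i j k : ℕ, g = a ^ i * b ^ j * z ^ k
  have hl : ∀ x ∈ ({a, b, z} : Set G), ∀ y, S y → S (x * y) := by
    rintro x (rfl | rfl | rfl) y ⟨i, j, k, rfl⟩
    · exact ⟨i + 1, j, k, by rw [pow_succ']; simp only [mul_assoc]⟩
    · refine ⟨i, j + 1, k + 4 * i, ?_⟩
      have h1 := b_mul_a_pow h5z haz hbz hab i
      have h6 : Commute (z ^ (4 * i)) (x ^ j) := hzb.pow_pow _ _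
      calc x * (a ^ i * x ^ j * z ^ k) = (x * a ^ i) * x ^ j * z ^ k := by simp only [mul_assoc]
        _ = a ^ i * x * z ^ (4 * i) * x ^ j * z ^ k := by rw [h1]
        _ = a ^ i * x * (z ^ (4 * i) * x ^ j) * z ^ k := by simp only [mul_assoc]
        _ = a ^ i * x * (x ^ j * z ^ (4 * i)) * z ^ k := by rw [h6.eq]
        _ = a ^ i * x ^ (j + 1) * z ^ (k + 4 * i) := by
          have h7 : Commute (z ^ (4 * i)) (z ^ k) := (Commute.refl z).pow_pow _ _
          rw [pow_succ' x j, pow_add z k, ← h7.eq]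
          simp only [mul_assoc]
    · refine ⟨i, j, k + 1, ?_⟩
      have h1 : Commute x (a ^ i) := hza.pow_right _
      have h2 : Commute x (b ^ j) := hzb.pow_right _
      calc x * (a ^ i * b ^ j * x ^ k) = (x * a ^ i) * b ^ j * x ^ k := by simp only [mul_assoc]
        _ = a ^ i * (x * b ^ j) * x ^ k := by rw [h1.eq]; simp only [mul_assoc]
        _ = a ^ i * (b ^ j * x) * x ^ k := by rw [h2.eq]
        _ = a ^ i * b ^ j * x ^ (k + 1) := by rw [pow_succ' x k]; simp only [mul_assoc]
  have hinv : ∀ x ∈ ({a, b, z} : Set G), x⁻¹ = x * (x * (x * x)) := by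
    have key : ∀ x : G, x ^ 5 = 1 → x⁻¹ = x * (x * (x * x)) := by
      intro x hx
      rw [inv_eq_iff_mul_eq_one]
      calc x * (x * (x * (x * x))) = x ^ 5 := by simp only [pow_succ, pow_zero, one_mul, mul_assoc]
        _ = 1 := hx
    rintro x (rfl | rfl | rfl)
    · exact key _ h5a
    · exact key _ h5b
    · exact key _ h5z
  have hS : S p := by
    induction hp using closure_induction_left with
    | one => exact ⟨0, 0, 0, by simp⟩
    | mul_left x hx y _ ih => exact hl x hx y ih
    | inv_mul_cancel x hx y _ ih =>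
      rw [hinv x hx]
      have h1 := hl x hx _ (hl x hx _ (hl x hx _ (hl x hx _ ih)))
      convert h1 using 1
      simp only [mul_assoc]
  obtain ⟨i, j, k, rfl⟩ := hS
  refine ⟨i % 5, j % 5, k % 5, Nat.mod_lt _ (by norm_num), Nat.mod_lt _ (by norm_num), Nat.mod_lt _ (by norm_num), ?_⟩
  rw [← pow_eq_pow_mod i h5a, ← pow_eq_pow_mod j h5b, ← pow_eq_pow_mod k h5z]

end heis

/-- A nonabelian group of order `125` moves a point only in orbits of length at least `25`. -/
theorem orbit_big {Q Ω : Type*} [Group Q] [MulAction Q Ω] (hQ : Nat.card Q = 125) (a b z : Q)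
    (hab : a * b = z * b * a) (x : Ω) (hx : z • x ≠ x) :
    (MulAction.stabilizer Q x).index = 25 ∨ (MulAction.stabilizer Q x).index = 125 := by
  have hfin : Finite Q := Nat.finite_of_card_ne_zero (by omega)
  set S := MulAction.stabilizer Q x with hS
  have hzS : z ∉ S := hx
  have hdvd : S.index ∣ 5 ^ 3 := by
    rw [show (5 : ℕ) ^ 3 = 125 by norm_num, ← hQ]
    exact S.index_dvd_card
  obtain ⟨m, hm, hm'⟩ := (Nat.dvd_prime_pow (by norm_num)).1 hdvd
  interval_cases m
  · exfalso
    rw [pow_zero, Subgroup.index_eq_one] at hm'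
    exact hzS (hm' ▸ mem_top z)
  · exfalso
    have hn : S.Normal := Subgroup.normal_of_index_eq_minFac_card (by rw [hm', hQ]; norm_num)
    have hc : Nat.card (Q ⧸ S) = 5 := by
      rw [← Subgroup.index_eq_card, hm']
      norm_num
    have : Fact (Nat.Prime 5) := ⟨by norm_num⟩
    have : IsCyclic (Q ⧸ S) := isCyclic_of_prime_card hc
    have hcomm : ∀ u v : Q ⧸ S, u * v = v * u := IsCyclic.commGroup.mul_comm
    have h1 : (QuotientGroup.mk a * QuotientGroup.mk b : Q ⧸ S) = QuotientGroup.mk z * QuotientGroup.mk b * QuotientGroup.mk a := by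
      rw [← QuotientGroup.mk_mul, hab]
      rfl
    apply hzS
    rw [← QuotientGroup.eq_one_iff]
    rw [hcomm, mul_assoc] at h1
    exact (mul_eq_right.1 h1.symm)
  · left
    rw [hm']
    norm_num
  · right
    rw [hm']
    norm_num

/-- The criterion. -/
theorem index_ge_50 {G : Type*} [Group G] [Finite G] [IsSimpleGroup G] (a b z h : G)
    (h5a : a ^ 5 = 1) (h5b : b ^ 5 = 1) (h5z : z ^ 5 = 1) (hz1 : z ≠ 1)
    (haz : a * z = z * a) (hbz : b * z = z * b) (hab : a * b = z * b * a)
    (hinj : ∀ i j k i' j' k' : ℕ, i < 5 → j < 5 → k < 5 → i' < 5 → j' < 5 → k' < 5 →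
      a ^ i * b ^ j * z ^ k = a ^ i' * b ^ j' * z ^ k' → i = i' ∧ j = j' ∧ k = k')
    (h8 : h ^ 8 = 1) (hha : h * a = b * h) (hhb : h * b = a ^ 2 * h) (hhz : h * z = z ^ 3 * h)
    (R4 : ∀ i j k e : ℕ, i < 5 → j < 5 → k < 5 → e < 5 → ¬ (i = 0 ∧ j = 0) →
      h * (a ^ i * b ^ j * z ^ k) ≠ (a ^ i * b ^ j * z ^ k) ^ e * h)
    (H : Subgroup G) (hH : H ≠ ⊤) : 50 ≤ H.index := by
  classical
  by_contra hlt
  push Not at hlt
  set P := closure ({a, b, z} : Set G) with hPdef
  have ha' : a ∈ P := subset_closure (by simp)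
  have hb' : b ∈ P := subset_closure (by simp)
  have hz' : z ∈ P := subset_closure (by simp)
  have hform : ∀ p ∈ P, ∃ i j k : ℕ, i < 5 ∧ j < 5 ∧ k < 5 ∧ p = a ^ i * b ^ j * z ^ k :=
    fun p hp => closure_form h5a h5b h5z haz hbz hab hp
  have hcardP : Nat.card P = 125 := by
    let φ : Fin 5 × Fin 5 × Fin 5 → P := fun t =>
      ⟨a ^ (t.1 : ℕ) * b ^ (t.2.1 : ℕ) * z ^ (t.2.2 : ℕ), mul_mem (mul_mem (pow_mem ha' _) (pow_mem hb' _)) (pow_mem hz' _)⟩
    have hbij : Function.Bijective φ := by
      constructor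
      · rintro ⟨i, j, k⟩ ⟨i', j', k'⟩ hh
        have h0 := congrArg Subtype.val hh
        obtain ⟨h1, h2, h3⟩ := hinj i j k i' j' k' i.2 j.2 k.2 i'.2 j'.2 k'.2 h0
        exact Prod.ext (Fin.ext h1) (Prod.ext (Fin.ext h2) (Fin.ext h3))
      · rintro ⟨p, hp⟩
        obtain ⟨i, j, k, hi, hj, hk, rfl⟩ := hform p hp
        exact ⟨(⟨i, hi⟩, ⟨j, hj⟩, ⟨k, hk⟩), rfl⟩
    rw [← Nat.card_congr (Equiv.ofBijective φ hbij)]
    simp
  have hzc : ∀ p ∈ P, z * p = p * z := by
    intro p hp
    obtain ⟨i, j, k, -, -, -, rfl⟩ := hform p hp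
    have h1 : Commute z (a ^ i) := (Commute.symm haz).pow_right _
    have h2 : Commute z (b ^ j) := (Commute.symm hbz).pow_right _
    have h3 : Commute z (z ^ k) := (Commute.refl z).pow_right _
    exact ((h1.mul_right h2).mul_right h3)
  let Ω := G ⧸ H
  haveI : Fintype Ω := Fintype.ofFinite Ω
  have hcardΩ : Nat.card Ω < 50 := by
    have : H.index = Nat.card Ω := rfl
    omega
  obtain ⟨x0, hx0⟩ : ∃ x0 : Ω, z • x0 ≠ x0 := by
    by_contra hno
    push Not at hno
    have hzN : z ∈ (MulAction.toPermHom G Ω).ker := by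
      rw [MonoidHom.mem_ker]
      ext1 x
      exact hno x
    rcases IsSimpleGroup.eq_bot_or_eq_top_of_normal _ ((MulAction.toPermHom G Ω).normal_ker) with hN | hN
    · rw [hN, mem_bot] at hzN
      exact hz1 hzN
    · apply hH
      rw [eq_top_iff]
      intro g _
      have hg : g ∈ (MulAction.toPermHom G Ω).ker := by
        rw [hN]
        exact mem_top g
      rw [MonoidHom.mem_ker] at hg
      have h1 : g • (QuotientGroup.mk 1 : Ω) = QuotientGroup.mk 1 := by
        have := congrArg (fun f => f (QuotientGroup.mk 1 : Ω)) hg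
        exact this
      have h2 : (QuotientGroup.mk (g * 1) : Ω) = QuotientGroup.mk 1 := h1
      rw [mul_one] at h2
      have h3 := (QuotientGroup.eq).1 h2
      simpa using H.inv_mem h3
  let zz : P := ⟨z, hz'⟩
  have hbig : ∀ x : Ω, z • x ≠ x → (MulAction.stabilizer P x).index = 25 ∨ (MulAction.stabilizer P x).index = 125 := by
    intro x hx
    exact orbit_big hcardP ⟨a, ha'⟩ ⟨b, hb'⟩ zz (Subtype.ext hab) x hx
  have horb : ∀ x : Ω, (MulAction.stabilizer P x).index = (MulAction.orbit P x).ncard :=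
    fun x => MulAction.index_stabilizer P x
  have hle : ∀ s : Set Ω, s.ncard < 50 := by
    intro s
    have : s.ncard ≤ Nat.card Ω := Set.ncard_le_card s
    omega
  have h25 : ∀ x : Ω, z • x ≠ x → (MulAction.orbit P x).ncard = 25 := by
    intro x hx
    have h1 := hle (MulAction.orbit P x)
    rcases hbig x hx with h2 | h2
    · rw [← horb, h2]
    · rw [← horb, h2] at h1
      omega
  have hsupp : ∀ x : Ω, z • x ≠ x → x ∈ MulAction.orbit P x0 := by
    intro x hx
    by_contra hno
    have hdis : Disjoint (MulAction.orbit P x) (MulAction.orbit P x0) := by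
      rw [Set.disjoint_left]
      rintro _ ⟨p, rfl⟩ ⟨q, hq⟩
      apply hno
      refine ⟨p⁻¹ * q, ?_⟩
      have hq' : q • x0 = p • x := hq
      show (p⁻¹ * q) • x0 = x
      rw [mul_smul, hq', inv_smul_smul]
    have h1 := Set.ncard_union_eq hdis (Set.toFinite _) (Set.toFinite _)
    rw [h25 x hx, h25 x0 hx0] at h1
    have h2 := hle (MulAction.orbit P x ∪ MulAction.orbit P x0)
    omega
  have hsupp' : ∀ y ∈ MulAction.orbit P x0, z • y ≠ y := by
    rintro _ ⟨p, rfl⟩ hfix
    apply hx0
    have hp : (p : G) * z = z * (p : G) := (hzc p p.2).symm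
    have h1 : z • (p • x0) = p • (z • x0) := by
      show z • ((p : G) • x0) = (p : G) • (z • x0)
      rw [← mul_smul, ← mul_smul, hp]
    have h2 : p • (z • x0) = p • x0 := h1.symm.trans hfix
    exact smul_left_cancel p h2
  have hfix : ∀ x : Ω, z • x = x → z • (h • x) = h • x := by
    intro x hx
    have h1 : (z ^ 3) • (h • x) = h • x := by
      rw [← mul_smul, ← hhz, mul_smul, hx]
    have h2 : z ^ 6 = z := by
      rw [show 6 = 5 + 1 from rfl, pow_succ, h5z, one_mul]
    rw [← h2, show 6 = 3 + 3 from rfl, pow_add, mul_smul, h1, h1]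
  have hfixn : ∀ (n : ℕ) (x : Ω), z • x = x → z • ((h ^ n) • x) = (h ^ n) • x := by
    intro n
    induction n with
    | zero => intro x hx; simpa using hx
    | succ n ih =>
      intro x hx
      rw [pow_succ', mul_smul]
      exact hfix _ (ih x hx)
  have hpres : ∀ x : Ω, z • (h • x) ≠ h • x ↔ z • x ≠ x := by
    intro x
    constructor
    · intro h1 h2
      exact h1 (hfix x h2)
    · intro h1 h2
      apply h1
      have h3 := hfixn 7 _ h2
      have h4 : (h ^ 7) • (h • x) = x := by rw [← mul_smul, ← pow_succ, h8, one_smul]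
      rw [h4] at h3
      exact h3
  let σ : Equiv.Perm {y : Ω // z • y ≠ y} := Equiv.Perm.subtypePerm (MulAction.toPerm h) (fun x => hpres x)
  have hσn : ∀ (n : ℕ) (y : {y : Ω // z • y ≠ y}), (((σ ^ n) y : {y : Ω // z • y ≠ y}) : Ω) = (h ^ n) • (y : Ω) := by
    intro n
    induction n with
    | zero => intro y; simp
    | succ n ih =>
      intro y
      rw [pow_succ', Equiv.Perm.mul_apply, pow_succ', mul_smul, ← ih y]
      rfl
  have hσ8 : σ ^ 2 ^ 3 = 1 := by
    ext1 y
    apply Subtype.ext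
    rw [hσn]
    simp [h8]
  have hcardT : Fintype.card {y : Ω // z • y ≠ y} = 25 := by
    have hset : {y : Ω | z • y ≠ y} = MulAction.orbit P x0 := by
      ext y
      exact ⟨hsupp y, hsupp' y⟩
    rw [← Nat.card_eq_fintype_card]
    have h1 : Nat.card {y : Ω // z • y ≠ y} = ({y : Ω | z • y ≠ y} : Set Ω).ncard := rfl
    rw [h1, hset]
    exact h25 x0 hx0
  obtain ⟨⟨y, hy⟩, hyσ⟩ := Equiv.Perm.exists_fixed_point_of_prime (p := 2) (n := 3) (σ := σ) (by rw [hcardT]; norm_num) hσ8
  have hhy : h • y = y := congrArg Subtype.val hyσ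
  have hinvy : h⁻¹ • y = y := by
    rw [inv_smul_eq_iff, hhy]
  set S := MulAction.stabilizer P y with hS
  have hSidx : S.index = 25 := by
    rw [hS, horb]
    exact h25 y hy
  have hScard : Nat.card S = 5 := by
    have := Subgroup.card_mul_index S
    rw [hSidx, hcardP] at this
    omega
  have hnt : Nontrivial S := (Finite.one_lt_card_iff_nontrivial).1 (by omega)
  obtain ⟨wS, hwS⟩ := exists_ne (1 : S)
  have : Fact (Nat.Prime 5) := ⟨by norm_num⟩
  let w : G := ((wS : P) : G)
  have hw1 : w ≠ 1 := by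
    intro h0
    apply hwS
    apply Subtype.ext
    apply Subtype.ext
    exact h0
  have hwy : w • y = y := wS.2
  obtain ⟨i, j, k, hi, hj, hk, hw⟩ := hform w (wS : P).2
  by_cases hij : i = 0 ∧ j = 0
  · obtain ⟨rfl, rfl⟩ := hij
    simp only [pow_zero, one_mul] at hw
    apply hy
    have hzk : z ^ k ∈ MulAction.stabilizer G y := by
      rw [MulAction.mem_stabilizer_iff, ← hw]
      exact hwy
    have key : z ∈ MulAction.stabilizer G y := by
      have h6 : z ^ 6 = z := by rw [show 6 = 5 + 1 from rfl, pow_succ, h5z, one_mul]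
      have h16 : z ^ 16 = z := by
        rw [show 16 = 5 * 3 + 1 from rfl, pow_succ, pow_mul, h5z, one_pow, one_mul]
      interval_cases k
      · exact absurd (by simpa using hw) hw1
      · simpa using hzk
      · have := pow_mem hzk 3
        rwa [← pow_mul, h6] at this
      · have := pow_mem hzk 2
        rwa [← pow_mul, h6] at this
      · have := pow_mem hzk 4
        rwa [← pow_mul, h16] at this
    exact key
  · -- the conjugate lies in the stabiliser
    have hnorm : P ≤ P.comap (MulAut.conj h).toMonoidHom := by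
      refine (closure_le _).2 ?_
      intro x hx
      rcases hx with hx | hx | hx
      · have hx' : x = a := hx
        rw [hx']
        show h * a * h⁻¹ ∈ P
        rw [hha, mul_inv_cancel_right]
        exact hb'
      · have hx' : x = b := hx
        rw [hx']
        show h * b * h⁻¹ ∈ P
        rw [hhb, mul_inv_cancel_right]
        exact pow_mem ha' _
      · have hx' : x = z := hx
        rw [hx']
        show h * z * h⁻¹ ∈ P
        rw [hhz, mul_inv_cancel_right]
        exact pow_mem hz' _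
    have hcP : h * w * h⁻¹ ∈ P := hnorm (wS : P).2
    have hcS : (⟨h * w * h⁻¹, hcP⟩ : P) ∈ S := by
      show (h * w * h⁻¹) • y = y
      rw [mul_smul, mul_smul, hinvy, hwy, hhy]
    have hmem := mem_powers_of_prime_card hScard (g := wS) (g' := ⟨⟨h * w * h⁻¹, hcP⟩, hcS⟩) hwS
    obtain ⟨e, he⟩ := hmem
    have h5w : wS ^ 5 = 1 := by
      rw [← hScard]
      exact pow_card_eq_one'
    have he2 : wS ^ (e % 5) = ⟨⟨h * w * h⁻¹, hcP⟩, hcS⟩ := by
      rw [← pow_eq_pow_mod e h5w]
      exact he
    have he3 : w ^ (e % 5) = h * w * h⁻¹ := by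
      have := congrArg (fun t : S => ((t : P) : G)) he2
      simpa using this
    apply R4 i j k (e % 5) hi hj hk (Nat.mod_lt _ (by norm_num)) hij
    rw [← hw, he3]
    simp only [inv_mul_cancel_right]

end Cfsg.Agent.Lib.U35
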