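/-
`PSU₃(5)` on its `126` isotropic points, with explicit elements.
-/
import Cfsg.Agent.Lib.ChevSmall.Act
import Cfsg.Agent.Lib.ChevSmall.Fields
import Cfsg.Agent.Lib.U35.Data
import Cfsg.Agent.Lib.Classical.UnitaryCenter
import Cfsg.Agent.S0280
import Cfsg.Agent.S0283

set_option autoImplicit false
set_option maxRecDepth 100000
set_option maxHeartbeats 8000000

namespace Cfsg.Agent.Lib.U35

open Cfsg.Agent.Lib.Compute Cfsg.Agent.Lib.ChevSmall Matrix
open Cfsg.Agent.Lib.Classical.Bin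

instance fact_prime_five' : Fact (Nat.Prime 5) := ⟨by norm_num⟩

/-- The field with twenty-five elements. -/
abbrev F25 := BinAlg (ZMod 5) (0 : ZMod 5) (3 : ZMod 5)

instance f25dec : DecidableEq F25 := fun u v =>
  decidable_of_iff (u.re = v.re ∧ u.im = v.im) (by
    constructor
    · rintro ⟨h1, h2⟩; exact BinAlg.ext h1 h2
    · rintro rfl; exact ⟨rfl, rfl⟩)

/-- Coordinates. -/
def f25Equiv : F25 ≃ ZMod 5 × ZMod 5 where
  toFun z := (z.re, z.im)
  invFun z := ⟨z.1, z.2⟩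
  left_inv _ := rfl
  right_inv _ := rfl

instance f25fin : Fintype F25 := Fintype.ofEquiv _ f25Equiv.symm

lemma card_F25 : Fintype.card F25 = 25 := by
  rw [Fintype.card_congr f25Equiv]
  simp [ZMod.card]

instance f25field : Field F25 :=
  { (inferInstance : CommRing F25) with
    inv := fun z => z ^ 23
    exists_pair_ne := ⟨0, 1, by decide⟩
    mul_inv_cancel := by decide +kernel
    inv_zero := by decide +kernel
    nnqsmul := _
    nnqsmul_def := fun _ _ => rfl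
    qsmul := _
    qsmul_def := fun _ _ => rfl }

/-- Any field with twenty-five elements is the explicit one. -/
theorem exists_equiv_F25 {F : Type*} [Field F] [Fintype F] (hF : Fintype.card F = 25) : Nonempty (F ≃+* F25) :=
  ⟨FiniteField.ringEquivOfCardEq (hF.trans card_F25.symm)⟩

/-- An element of the field from a digit. -/
def f25 (d : ℕ) : F25 := ⟨((d / 5 : ℕ) : ZMod 5), ((d % 5 : ℕ) : ZMod 5)⟩

/-- The digit of a field element. -/
def f25c (z : F25) : ℕ := 5 * z.re.val + z.im.val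

/-- The 126 isotropic points. -/
def vU (i : Fin 126) : Fin 3 → F25 :=
  fun k => f25 (pget 14 16383 vuT i / 25 ^ (k : ℕ) % 25)

/-- A number as a point. -/
def fin126 (n : ℕ) : Fin 126 := Fin.ofNat 126 n

/-- The code of a vector. -/
def vcode (a b c : F25) : ℕ := f25c a + 25 * f25c b + 625 * f25c c

/-- The index of a vector. -/
def vidx (v : Fin 3 → F25) : Fin 126 := fin126 (pget 12 4095 covT (vcode (v 0) (v 1) (v 2)) % 128)

theorem vidx_self : ∀ i : Fin 126, vidx (vU i) = i := by decide +kernel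

theorem vidx_smul : ∀ (j : Fin 126) (c : F25), c ≠ 0 → vidx (c • vU j) = j := by decide +kernel

theorem vU_herm : ∀ j : Fin 126, vU j ≠ 0 ∧ Cfsg.hermForm 3 F25 5 (vU j) (vU j) = 0 := by decide +kernel

theorem vU_inj (i j : Fin 126) (c : F25) (h : vU i = c • vU j) : i = j := by
  by_cases hc : c = 0
  · exfalso
    apply (vU_herm i).1
    rw [h, hc, zero_smul]
  · rw [← vidx_self i, h, vidx_smul j c hc]

theorem cov1 : ∀ b d : F25, Cfsg.hermForm 3 F25 5 ![1, b, d] ![1, b, d] = 0 → ![1, b, d] = vU (vidx ![1, b, d]) := by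
  decide +kernel

theorem cov2 : ∀ d : F25, Cfsg.hermForm 3 F25 5 ![0, 1, d] ![0, 1, d] = 0 → ![0, 1, d] = vU (vidx ![0, 1, d]) := by
  decide +kernel

theorem cov3 : ∀ d : F25, Cfsg.hermForm 3 F25 5 ![0, 0, d] ![0, 0, d] = 0 → d = 0 := by
  decide +kernel

theorem herm_smul (c : F25) (v : Fin 3 → F25) :
    Cfsg.hermForm 3 F25 5 (c • v) (c • v) = c * c ^ 5 * Cfsg.hermForm 3 F25 5 v v := by
  simp only [Cfsg.hermForm, Pi.smul_apply, smul_eq_mul, mul_pow, Finset.mul_sum]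
  refine Finset.sum_congr rfl fun i _ => ?_
  ring

theorem vU_cover (v : Fin 3 → F25) (h : v ≠ 0 ∧ Cfsg.hermForm 3 F25 5 v v = 0) :
    ∃ (c : F25) (j : Fin 126), c ≠ 0 ∧ v = c • vU j := by
  have hv : v = ![v 0, v 1, v 2] := by
    funext i
    fin_cases i <;> rfl
  have hsc : ∀ c : F25, c ≠ 0 → Cfsg.hermForm 3 F25 5 (c⁻¹ • v) (c⁻¹ • v) = 0 := by
    intro c _
    rw [herm_smul, h.2, mul_zero]
  by_cases h0 : v 0 = 0
  · by_cases h1 : v 1 = 0
    · exfalso
      apply h.1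
      have h2 := h.2
      rw [hv, h0, h1] at h2
      have h3 := cov3 _ h2
      rw [hv, h0, h1, h3]
      funext i
      fin_cases i <;> rfl
    · have hu : (v 1)⁻¹ • v = ![0, 1, (v 1)⁻¹ * v 2] := by
        funext i
        fin_cases i
        · simp [h0]
        · simp [h1]
        · simp
      have h2 := hsc _ h1
      rw [hu] at h2
      refine ⟨v 1, vidx ![0, 1, (v 1)⁻¹ * v 2], h1, ?_⟩
      rw [← cov2 _ h2, ← hu, smul_inv_smul₀ h1]
  · have hu : (v 0)⁻¹ • v = ![1, (v 0)⁻¹ * v 1, (v 0)⁻¹ * v 2] := by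
      funext i
      fin_cases i
      · simp [h0]
      · simp
      · simp
    have h2 := hsc _ h0
    rw [hu] at h2
    refine ⟨v 0, vidx ![1, (v 0)⁻¹ * v 1, (v 0)⁻¹ * v 2], h0, ?_⟩
    rw [← cov1 _ _ h2, ← hu, smul_inv_smul₀ h0]

theorem add_five : ∀ a b : F25, (a + b) ^ 5 = a ^ 5 + b ^ 5 := by decide +kernel

/-- The matrices of elements of `SU₃(5)`. -/
noncomputable def matU : ↥(Cfsg.SU 3 F25 5) →* Matrix (Fin 3) (Fin 3) F25 :=
  (Cfsg.slToMat 3 F25).comp (Cfsg.SU 3 F25 5).subtype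

theorem matU_herm (g : ↥(Cfsg.SU 3 F25 5)) (u v : Fin 3 → F25) :
    Cfsg.hermForm 3 F25 5 (matU g *ᵥ u) (matU g *ᵥ v) = Cfsg.hermForm 3 F25 5 u v := g.2 u v

theorem exists_repU : ∃ ρ : ↥(Cfsg.SU 3 F25 5) →* Equiv.Perm (Fin 126),
    ∀ g i, ∃ c : F25, c ≠ 0 ∧ matAct matU g (vU i) = c • vU (ρ g i) :=
  exists_rep_of_cover (matAct matU) (matAct_smul matU) (fun v => v ≠ 0 ∧ Cfsg.hermForm 3 F25 5 v v = 0)
    (fun g v hv => by
      refine ⟨?_, ?_⟩
      · intro h0
        apply hv.1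
        apply (matAct matU g).injective
        rw [h0, matAct_apply, Matrix.mulVec_zero]
      · rw [matAct_apply, matU_herm]
        exact hv.2) vU vU_herm vU_cover vU_inj

/-- The representation of `SU₃(5)` on the 126 points. -/
noncomputable def ρU : ↥(Cfsg.SU 3 F25 5) →* Equiv.Perm (Fin 126) := Classical.choose exists_repU

theorem ρU_spec (g : ↥(Cfsg.SU 3 F25 5)) (i : Fin 126) :
    ∃ c : F25, c ≠ 0 ∧ matAct matU g (vU i) = c • vU (ρU g i) :=
  Classical.choose_spec exists_repU g i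

theorem exists_repP : ∃ ρ' : Cfsg.PSU 3 F25 5 →* Equiv.Perm (Fin 126), ∀ g, ρ' (QuotientGroup.mk g) = ρU g :=
  exists_lift ρU_spec vU_inj (Subgroup.center _) (by
    intro g hg i
    obtain ⟨c, hc⟩ := Cfsg.Agent.Lib.Classical.center_scalar (F := F25) (q := 5) (n := 3) (by rw [card_F25]; norm_num) g hg
    rcases hc with hc | hc
    · refine ⟨c, ?_⟩
      rw [matAct_apply]
      show (((g : Matrix.SpecialLinearGroup (Fin 3) F25) : Matrix (Fin 3) (Fin 3) F25)) *ᵥ _ = _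
      rw [hc, Matrix.smul_mulVec, Matrix.one_mulVec]
    · omega)

/-- The representation of `PSU₃(5)` on the 126 points. -/
noncomputable def ρP : Cfsg.PSU 3 F25 5 →* Equiv.Perm (Fin 126) := Classical.choose exists_repP

theorem ρP_mk (g : ↥(Cfsg.SU 3 F25 5)) : ρP (QuotientGroup.mk g) = ρU g := Classical.choose_spec exists_repP g

theorem card_PSU : Nat.card (Cfsg.PSU 3 F25 5) = 126000 := by
  have h := Cfsg.Agent.S0280.result (F := F25) (q := 5) (by rw [card_F25]; norm_num) 3 (by norm_num)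
  simp only [Finset.prod_range_succ, Finset.prod_range_zero] at h
  norm_num at h
  omega

instance simple_PSU : IsSimpleGroup (Cfsg.PSU 3 F25 5) :=
  Cfsg.Agent.S0283.result (F := F25) (q := 5) (by rw [card_F25]; norm_num) 3 (by norm_num) (by omega)

instance finite_PSU : Finite (Cfsg.PSU 3 F25 5) :=
  Nat.finite_of_card_ne_zero (by rw [card_PSU]; norm_num)

/-- The element of `SU₃(5)` with given matrix. -/
noncomputable def mkU (m : Matrix (Fin 3) (Fin 3) F25) (hd : m.det = 1)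
    (hU : ∀ i j : Fin 3, ∑ k, m k i * (m k j) ^ 5 = if i = j then (1 : F25) else 0) : ↥(Cfsg.SU 3 F25 5) :=
  ⟨⟨m, hd⟩, herm_of_isU (by norm_num) add_five (fun i j => by
    rw [Matrix.one_apply]
    exact hU i j)⟩

/-- The tables. -/
def T (l x : ℕ) : ℕ := pget 7 127 tabT (l * 126 + x)

/-- The tables as functions on points. -/
def t (l : ℕ) (x : Fin 126) : Fin 126 := fin126 (T l x)

theorem ρU_mkU (m : Matrix (Fin 3) (Fin 3) F25) (hd) (hU) (l : ℕ)
    (hact : ∀ i : Fin 126, ∃ c : F25, c ≠ 0 ∧ m *ᵥ vU i = c • vU (t l i)) (i : Fin 126) :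
    ρP (QuotientGroup.mk (mkU m hd hU)) i = t l i := by
  rw [ρP_mk]
  obtain ⟨c, hc0, h1⟩ := ρU_spec (mkU m hd hU) i
  obtain ⟨d, _, h2⟩ := hact i
  have h3 : matAct matU (mkU m hd hU) (vU i) = m *ᵥ vU i := rfl
  rw [h3, h2] at h1
  have h4 : vU (ρU (mkU m hd hU) i) = (c⁻¹ * d) • vU (t l i) := by
    rw [mul_smul, h1, inv_smul_smul₀ hc0]
  exact vU_inj _ _ _ h4

/-- First generator. -/
def mA : Matrix (Fin 3) (Fin 3) F25 := !![f25 5, f25 5, f25 9; f25 20, f25 15, f25 13; f25 24, f25 12, f25 20]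
/-- Second generator. -/
def mB : Matrix (Fin 3) (Fin 3) F25 := !![f25 5, f25 1, f25 16; f25 1, f25 10, f25 9; f25 11, f25 6, f25 0]
/-- Central element. -/
def mZ : Matrix (Fin 3) (Fin 3) F25 := !![f25 5, f25 0, f25 0; f25 0, f25 8, f25 23; f25 0, f25 8, f25 7]
/-- Toral element. -/
def mH : Matrix (Fin 3) (Fin 3) F25 := !![f25 17, f25 0, f25 0; f25 0, f25 2, f25 21; f25 0, f25 21, f25 19]
/-- A generator of the subgroup of order 2520. -/
def mU : Matrix (Fin 3) (Fin 3) F25 := !![f25 12, f25 9, f25 18; f25 5, f25 10, f25 18; f25 6, f25 4, f25 15]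
/-- A generator of the subgroup of order 2520. -/
def mV : Matrix (Fin 3) (Fin 3) F25 := !![f25 18, f25 19, f25 1; f25 2, f25 4, f25 18; f25 4, f25 13, f25 19]

theorem mA_det : mA.det = 1 := by decide +kernel
theorem mB_det : mB.det = 1 := by decide +kernel
theorem mZ_det : mZ.det = 1 := by decide +kernel
theorem mH_det : mH.det = 1 := by decide +kernel
theorem mU_det : mU.det = 1 := by decide +kernel
theorem mV_det : mV.det = 1 := by decide +kernel
theorem mA_U : ∀ i j : Fin 3, ∑ k, mA k i * (mA k j) ^ 5 = if i = j then (1 : F25) else 0 := by decide +kernel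
theorem mB_U : ∀ i j : Fin 3, ∑ k, mB k i * (mB k j) ^ 5 = if i = j then (1 : F25) else 0 := by decide +kernel
theorem mZ_U : ∀ i j : Fin 3, ∑ k, mZ k i * (mZ k j) ^ 5 = if i = j then (1 : F25) else 0 := by decide +kernel
theorem mH_U : ∀ i j : Fin 3, ∑ k, mH k i * (mH k j) ^ 5 = if i = j then (1 : F25) else 0 := by decide +kernel
theorem mU_U : ∀ i j : Fin 3, ∑ k, mU k i * (mU k j) ^ 5 = if i = j then (1 : F25) else 0 := by decide +kernel
theorem mV_U : ∀ i j : Fin 3, ∑ k, mV k i * (mV k j) ^ 5 = if i = j then (1 : F25) else 0 := by decide +kernel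

theorem mA_act : ∀ i : Fin 126, ∃ c : F25, c ≠ 0 ∧ mA *ᵥ vU i = c • vU (t 0 i) := by decide +kernel
theorem mB_act : ∀ i : Fin 126, ∃ c : F25, c ≠ 0 ∧ mB *ᵥ vU i = c • vU (t 1 i) := by decide +kernel
theorem mZ_act : ∀ i : Fin 126, ∃ c : F25, c ≠ 0 ∧ mZ *ᵥ vU i = c • vU (t 2 i) := by decide +kernel
theorem mH_act : ∀ i : Fin 126, ∃ c : F25, c ≠ 0 ∧ mH *ᵥ vU i = c • vU (t 3 i) := by decide +kernel
theorem mU_act : ∀ i : Fin 126, ∃ c : F25, c ≠ 0 ∧ mU *ᵥ vU i = c • vU (t 4 i) := by decide +kernel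
theorem mV_act : ∀ i : Fin 126, ∃ c : F25, c ≠ 0 ∧ mV *ᵥ vU i = c • vU (t 5 i) := by decide +kernel

/-- Elements of `PSU₃(5)`. -/
noncomputable def eA : Cfsg.PSU 3 F25 5 := QuotientGroup.mk (mkU mA mA_det mA_U)
/-- Elements of `PSU₃(5)`. -/
noncomputable def eB : Cfsg.PSU 3 F25 5 := QuotientGroup.mk (mkU mB mB_det mB_U)
/-- Elements of `PSU₃(5)`. -/
noncomputable def eZ : Cfsg.PSU 3 F25 5 := QuotientGroup.mk (mkU mZ mZ_det mZ_U)
/-- Elements of `PSU₃(5)`. -/
noncomputable def eH : Cfsg.PSU 3 F25 5 := QuotientGroup.mk (mkU mH mH_det mH_U)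
/-- Elements of `PSU₃(5)`. -/
noncomputable def eU : Cfsg.PSU 3 F25 5 := QuotientGroup.mk (mkU mU mU_det mU_U)
/-- Elements of `PSU₃(5)`. -/
noncomputable def eV : Cfsg.PSU 3 F25 5 := QuotientGroup.mk (mkU mV mV_det mV_U)

theorem ρ_A (i : Fin 126) : ρP eA i = t 0 i := ρU_mkU _ _ _ _ mA_act i
theorem ρ_B (i : Fin 126) : ρP eB i = t 1 i := ρU_mkU _ _ _ _ mB_act i
theorem ρ_Z (i : Fin 126) : ρP eZ i = t 2 i := ρU_mkU _ _ _ _ mZ_act i
theorem ρ_H (i : Fin 126) : ρP eH i = t 3 i := ρU_mkU _ _ _ _ mH_act i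
theorem ρ_U (i : Fin 126) : ρP eU i = t 4 i := ρU_mkU _ _ _ _ mU_act i
theorem ρ_V (i : Fin 126) : ρP eV i = t 5 i := ρU_mkU _ _ _ _ mV_act i

theorem t_lt : ∀ (l : Fin 6) (x : Fin 126), T l x < 126 := by decide +kernel

end Cfsg.Agent.Lib.U35
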