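/-
`PSU₃(5)`: every proper subgroup has index at least `50`, and `50` is attained.
-/
import Cfsg.Agent.Lib.U35.Rep
import Cfsg.Agent.Lib.U35.Abs
import Cfsg.Agent.Lib.Classical.RingCongr3
import Cfsg.Agent.Lib.ChevSmall.Kit

set_option autoImplicit false
set_option maxRecDepth 100000
set_option maxHeartbeats 8000000

namespace Cfsg.Agent.Lib.U35

open Cfsg.Agent.Lib.Compute Cfsg.Agent.Lib.ChevSmall

theorem ta1 : t 0 1 ≠ 1 := by decide +kernel
theorem tz1 : t 2 1 ≠ 1 := by decide +kernel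

theorem ρP_inj : Function.Injective ρP := by
  have hn : ρP eA ≠ 1 := by
    intro h
    have h1 := congrArg (fun σ : Equiv.Perm (Fin 126) => σ 1) h
    simp only [Equiv.Perm.one_apply, ρ_A] at h1
    exact ta1 h1
  rcases IsSimpleGroup.eq_bot_or_eq_top_of_normal ρP.ker ρP.normal_ker with h | h
  · exact (MonoidHom.ker_eq_bot_iff ρP).1 h
  · exfalso
    apply hn
    have h2 : eA ∈ ρP.ker := by
      rw [h]
      exact Subgroup.mem_top _
    exact h2

theorem pow_apply' {σ : Equiv.Perm (Fin 126)} {f : Fin 126 → Fin 126} (h : ∀ x, σ x = f x) (n : ℕ) (x : Fin 126) :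
    (σ ^ n) x = f^[n] x := by
  induction n with
  | zero => simp
  | succ n ih => rw [pow_succ', Equiv.Perm.mul_apply, ih, h, Function.iterate_succ_apply']

theorem r5a : ∀ x : Fin 126, (t 0)^[5] x = x := by decide +kernel
theorem r5b : ∀ x : Fin 126, (t 1)^[5] x = x := by decide +kernel
theorem r5z : ∀ x : Fin 126, (t 2)^[5] x = x := by decide +kernel
theorem r8h : ∀ x : Fin 126, (t 3)^[8] x = x := by decide +kernel
theorem raz : ∀ x : Fin 126, t 0 (t 2 x) = t 2 (t 0 x) := by decide +kernel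
theorem rbz : ∀ x : Fin 126, t 1 (t 2 x) = t 2 (t 1 x) := by decide +kernel
theorem rab : ∀ x : Fin 126, t 0 (t 1 x) = t 2 (t 1 (t 0 x)) := by decide +kernel
theorem rha : ∀ x : Fin 126, t 3 (t 0 x) = t 1 (t 3 x) := by decide +kernel
theorem rhb : ∀ x : Fin 126, t 3 (t 1 x) = t 0 (t 0 (t 3 x)) := by decide +kernel
theorem rhz : ∀ x : Fin 126, t 3 (t 2 x) = t 2 (t 2 (t 2 (t 3 x))) := by decide +kernel

/-- The action of a normal form. -/
def wf (i j k : ℕ) (x : Fin 126) : Fin 126 := (t 0)^[i] ((t 1)^[j] ((t 2)^[k] x))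

theorem ρ_form (i j k : ℕ) (x : Fin 126) : ρP (eA ^ i * eB ^ j * eZ ^ k) x = wf i j k x := by
  rw [map_mul, map_mul, map_pow, map_pow, map_pow, Equiv.Perm.mul_apply, Equiv.Perm.mul_apply,
    pow_apply' ρ_A, pow_apply' ρ_B, pow_apply' ρ_Z]
  rfl

theorem inv_check : ∀ i j k : Fin 5, pget 7 127 invTT (wf i j k 1) = (i : ℕ) + 5 * (j : ℕ) + 25 * (k : ℕ) := by
  decide +kernel

theorem r4_check : ∀ i j k e : Fin 5, ((i : ℕ) = 0 ∧ (j : ℕ) = 0) ∨ t 3 (wf i j k 1) ≠ (wf i j k)^[e] (t 3 1) := by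
  decide +kernel

/-- The lower bound for the explicit field. -/
theorem lower (H : Subgroup (Cfsg.PSU 3 F25 5)) (hH : H ≠ ⊤) : 50 ≤ H.index := by
  refine index_ge_50 eA eB eZ eH ?_ ?_ ?_ ?_ ?_ ?_ ?_ ?_ ?_ ?_ ?_ ?_ ?_ H hH
  · apply ρP_inj
    rw [map_pow, map_one]
    ext1 x
    rw [pow_apply' ρ_A, r5a]
    rfl
  · apply ρP_inj
    rw [map_pow, map_one]
    ext1 x
    rw [pow_apply' ρ_B, r5b]
    rfl
  · apply ρP_inj
    rw [map_pow, map_one]
    ext1 x
    rw [pow_apply' ρ_Z, r5z]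
    rfl
  · intro h
    have h1 := congrArg (fun σ : Equiv.Perm (Fin 126) => σ 1) (congrArg ρP h)
    simp only [map_one, Equiv.Perm.one_apply, ρ_Z] at h1
    exact tz1 h1
  · apply ρP_inj
    rw [map_mul, map_mul]
    ext1 x
    simp only [Equiv.Perm.mul_apply, ρ_A, ρ_Z]
    rw [raz]
  · apply ρP_inj
    rw [map_mul, map_mul]
    ext1 x
    simp only [Equiv.Perm.mul_apply, ρ_B, ρ_Z]
    rw [rbz]
  · apply ρP_inj
    rw [map_mul, map_mul, map_mul]
    ext1 x
    simp only [Equiv.Perm.mul_apply, ρ_A, ρ_B, ρ_Z]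
    rw [rab]
  · intro i j k i' j' k' hi hj hk hi' hj' hk' h0
    have h1 := congrArg (fun σ : Equiv.Perm (Fin 126) => σ 1) (congrArg ρP h0)
    simp only [ρ_form] at h1
    have h2 := inv_check ⟨i, hi⟩ ⟨j, hj⟩ ⟨k, hk⟩
    have h3 := inv_check ⟨i', hi'⟩ ⟨j', hj'⟩ ⟨k', hk'⟩
    simp only at h2 h3
    rw [h1, h3] at h2
    omega
  · apply ρP_inj
    rw [map_pow, map_one]
    ext1 x
    rw [pow_apply' ρ_H, r8h]
    rfl
  · apply ρP_inj
    rw [map_mul, map_mul]
    ext1 x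
    simp only [Equiv.Perm.mul_apply, ρ_A, ρ_B, ρ_H]
    rw [rha]
  · apply ρP_inj
    rw [map_mul, map_mul, map_pow, pow_two]
    ext1 x
    simp only [Equiv.Perm.mul_apply, ρ_A, ρ_B, ρ_H]
    rw [rhb]
  · apply ρP_inj
    rw [map_mul, map_mul, map_pow, pow_succ, pow_two]
    ext1 x
    simp only [Equiv.Perm.mul_apply, ρ_Z, ρ_H]
    rw [rhz]
  · intro i j k e hi hj hk he hij h0
    have h1 := congrArg (fun σ : Equiv.Perm (Fin 126) => σ 1) (congrArg ρP h0)
    simp only [map_mul ρP eH, map_mul ρP (_ ^ e), Equiv.Perm.mul_apply, ρ_H] at h1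
    rw [ρ_form, map_pow, pow_apply' (ρ_form i j k)] at h1
    rcases r4_check ⟨i, hi⟩ ⟨j, hj⟩ ⟨k, hk⟩ ⟨e, he⟩ with h2 | h2
    · exact hij h2
    · exact h2 h1

/-- The block number of a point. -/
def bl (x : Fin 126) : ℕ := pget 5 31 blT x

/-- The stabiliser of the block system. -/
def M : Subgroup (Equiv.Perm (Fin 126)) where
  carrier := {σ | ∀ i j, bl (σ i) = bl (σ j) ↔ bl i = bl j}
  mul_mem' := by
    intro σ τ hσ hτ i j
    show bl (σ (τ i)) = bl (σ (τ j)) ↔ _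
    rw [hσ, hτ]
  one_mem' := by
    intro i j
    rfl
  inv_mem' := by
    intro σ hσ i j
    have h1 := hσ (σ⁻¹ i) (σ⁻¹ j)
    have e : ∀ x, σ (σ⁻¹ x) = x := fun x => by simp
    rw [e, e] at h1
    exact h1.symm

theorem b4 : ∀ i j : Fin 126, bl (t 4 i) = bl (t 4 j) ↔ bl i = bl j := by decide +kernel
theorem b5 : ∀ i j : Fin 126, bl (t 5 i) = bl (t 5 j) ↔ bl i = bl j := by decide +kernel
theorem b0 : ¬ (bl (t 0 0) = bl (t 0 14) ↔ bl 0 = bl 14) := by decide +kernel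

/-- The subgroup. -/
noncomputable def H0 : Subgroup (Cfsg.PSU 3 F25 5) := M.comap ρP

theorem H0_ne : H0 ≠ ⊤ := by
  intro h
  have h1 : eA ∈ H0 := by
    rw [h]
    exact Subgroup.mem_top _
  have h2 : ρP eA ∈ M := h1
  have h3 := h2 0 14
  rw [ρ_A, ρ_A] at h3
  exact b0 h3

/-- Letters as permutations. -/
noncomputable def gl (l : ℕ) : Equiv.Perm (Fin 126) := if l = 0 then ρP eU else ρP eV

/-- Letters as tables. -/
def Tl (l x : ℕ) : ℕ := T (l + 4) x

/-- The words, listed with strictly increasing keys. -/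
noncomputable def wordOf (i : ℕ) : List ℕ := decodeW 3 15 (pget 22 4194303 wT i)

theorem words_mono : allBelow (fun i => Nat.blt (numKey Tl 126 [0, 1] (wordOf i))
    (numKey Tl 126 [0, 1] (wordOf (i + 1)))) 2519 = true := by decide +kernel

theorem card_A : 2520 ≤ Nat.card ↥(Subgroup.closure ({ρP eU, ρP eV} : Set (Equiv.Perm (Fin 126)))) := by
  refine card_ge_of_words (k := 2) gl Tl ?_ _ ?_ wordOf (fun i _ a ha => decodeW_lt ha) [0, 1] (by simp) ?_
  · intro a ha x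
    have ha' : a = 0 ∨ a = 1 := by omega
    rcases ha' with rfl | rfl
    · show ((ρP eU x : Fin 126) : ℕ) = T 4 x
      rw [ρ_U]
      exact Nat.mod_eq_of_lt (t_lt 4 x)
    · show ((ρP eV x : Fin 126) : ℕ) = T 5 x
      rw [ρ_V]
      exact Nat.mod_eq_of_lt (t_lt 5 x)
  · intro a ha
    have ha' : a = 0 ∨ a = 1 := by omega
    rcases ha' with rfl | rfl
    · exact Subgroup.subset_closure (Set.mem_insert _ _)
    · exact Subgroup.subset_closure (Set.mem_insert_of_mem _ rfl)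
  · intro i hi
    have h := (allBelow_iff _ _).1 words_mono i (by omega)
    exact Eq.mp Nat.blt_eq h

theorem card_H0 : 2520 ≤ Nat.card H0 := by
  have h1 : Subgroup.closure ({ρP eU, ρP eV} : Set (Equiv.Perm (Fin 126))) ≤ H0.map ρP := by
    rw [Subgroup.closure_le]
    rintro σ (rfl | rfl)
    · refine ⟨eU, ?_, rfl⟩
      intro i j
      rw [ρ_U, ρ_U]
      exact b4 i j
    · refine ⟨eV, ?_, rfl⟩
      intro i j
      rw [ρ_V, ρ_V]
      exact b5 i j
  have h2 : Nat.card (H0.map ρP) = Nat.card H0 := Nat.card_congr (H0.equivMapOfInjective ρP ρP_inj).symm.toEquiv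
  have h3 := Subgroup.card_le_of_le h1
  have h4 := card_A
  omega

theorem index_H0 : H0.index = 50 := by
  have h1 := lower H0 H0_ne
  have h2 := Subgroup.index_mul_card H0
  rw [card_PSU] at h2
  have h3 := card_H0
  by_contra h4
  have h5 : 51 ≤ H0.index := by omega
  have h6 := Nat.mul_le_mul h5 h3
  omega

end Cfsg.Agent.Lib.U35
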